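import Cfsg.Agent.H770.MonThirFin
import Cfsg.Agent.H757.MonMat

/-!
# The Monster at the prime 13 (helper770, for S5207)
-/

set_option autoImplicit false

namespace Cfsg.Agent.H770.MonThirTop

open Cfsg

/-- **The Monster at the prime 13.** -/
theorem target [Fact (Nat.Prime 13)] : H773.Rv.TargetThree 13 :=
  MonThirFin.target_of H757.RvM.step1 H757.RvM.step3

end Cfsg.Agent.H770.MonThirTop
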